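import Cfsg.Agent.H626.PermB.Main

/-!
# Task T7 of project KGL: `permB` (helper626)
-/

set_option autoImplicit false

namespace Cfsg.Agent.H626.PermB

open Subgroup Cfsg.Agent.H475.KGL

theorem mv_eq {m : ℕ} (g : Equiv.Perm (Fin m)) : mv g = g.support.card := by
  unfold mv
  rw [Nat.card_eq_fintype_card, Fintype.card_subtype]
  rfl

theorem wt_le {m : ℕ} (g : Equiv.Perm (Fin m)) : (wt g : ℝ) ≤ 16 ^ m * Fx om g := by
  have h1 : Multiset.card g.cycleType * 2 ≤ g.support.card := by
    rw [← Equiv.Perm.sum_cycleType]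
    have h2 := Multiset.card_nsmul_le_sum (s := g.cycleType) (a := 2)
      (fun x hx => Equiv.Perm.two_le_of_mem_cycleType hx)
    simpa using h2
  have h3 : g.support.card ≤ m := by
    have := Finset.card_le_univ g.support
    rwa [Fintype.card_fin] at this
  unfold wt Fx
  rw [mv_eq]
  set s := g.support.card with hs
  set k := Multiset.card g.cycleType with hk
  have h4 : (96 : ℝ) = (16 * om) ^ 2 := by rw [mul_pow, om_sq]; norm_num
  have h5 : (1 : ℝ) ≤ 16 * om := by
    have h6 := om_sq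
    have h7 := om_nonneg
    nlinarith
  have h6 : (96 : ℝ) ^ k ≤ (16 * om) ^ s := by
    rw [h4, ← pow_mul]
    exact pow_le_pow_right₀ h5 (by omega)
  have h7 : (16 : ℝ) ^ m = 16 ^ (m - s) * 16 ^ s := by rw [← pow_add]; congr 1; omega
  push_cast
  calc (16 : ℝ) ^ (m - s) * 96 ^ k ≤ 16 ^ (m - s) * (16 * om) ^ s :=
        mul_le_mul_of_nonneg_left h6 (by positivity)
    _ = 16 ^ m * om ^ s := by rw [h7, mul_pow]; ring

/-- **T7.** -/
theorem permB (P : Perm2) (P5 : Prim5) : PermB := by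
  classical
  intro m hm S h5 f hf
  have : Fintype (ConjClasses S) := Fintype.ofFinite _
  rw [finsum_eq_sum_of_fintype]
  have h1 := mn_all P P5 m S (Fin m) S.subtype S.subtype_injective (Nat.card_fin m) h5
  have hcls : ∀ x z : S, IsConj x z → Fx om (S.subtype x) = Fx om (S.subtype z) := by
    intro x z h
    obtain ⟨g, hg⟩ := isConj_iff.1 h
    unfold Fx
    rw [← hg, map_mul, map_mul, map_inv, mv_conj]
  rw [nu_top _ hcls f hf] at h1
  have h2 : ((∑ c : ConjClasses S, wt (f c : Equiv.Perm (Fin m)) : ℕ) : ℝ) ≤ ((16 * 25 ^ (m - 1) : ℕ) : ℝ) := by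
    push_cast
    calc ∑ c : ConjClasses S, (wt (f c : Equiv.Perm (Fin m)) : ℝ)
        ≤ ∑ c : ConjClasses S, 16 ^ m * Fx om (S.subtype (f c)) := Finset.sum_le_sum fun c _ => wt_le _
      _ = 16 ^ m * ∑ c : ConjClasses S, Fx om (S.subtype (f c)) := by rw [Finset.mul_sum]
      _ ≤ 16 ^ m * (25 / 16) ^ (m - 1) := mul_le_mul_of_nonneg_left h1 (by positivity)
      _ = 16 * 25 ^ (m - 1) := by
          obtain ⟨n, rfl⟩ : ∃ n, m = n + 1 := ⟨m - 1, by omega⟩
          rw [Nat.add_sub_cancel, div_pow, pow_succ]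
          field_simp
  exact_mod_cast h2

end Cfsg.Agent.H626.PermB
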