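import Cfsg.Agent.S0547
import Cfsg.Agent.S0144

/-!
# Primitive groups of degree 6 have order divisible by 5 (helper626)
-/

set_option autoImplicit false

namespace Cfsg.Agent.H626.PermB

theorem five_dvd_of_six {G : Type*} [Group G] [Finite G] {X : Type*} [Finite X] [MulAction G X] [FaithfulSMul G X]
    (hprim : MulAction.IsPreprimitive G X) (hX : Nat.card X = 6) : 5 ∣ Nat.card G := by
  classical
  by_contra h5
  have hne : Nonempty X := (Nat.card_pos_iff.1 (by omega)).1
  have hdvd : Nat.card G ∣ 720 := by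
    have h1 : Nat.card G ∣ Nat.card (Equiv.Perm X) := by
      have h2 : Function.Injective (MulAction.toPermHom G X) := MulAction.toPerm_injective
      exact Subgroup.card_dvd_of_injective _ h2
    rwa [Nat.card_perm, hX] at h1
  have hpos : 0 < Nat.card G := Nat.card_pos
  -- `|G| = 2^a 3^b`
  have hsolv : Group.IsSolvable G := by
    refine Cfsg.Agent.S0144.result 2 3 ((Nat.card G).factorization 2) ((Nat.card G).factorization 3) Nat.prime_two
      Nat.prime_three ?_
    have h1 : Nat.card G ∣ 144 := by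
      have h2 : (720 : ℕ) = 5 * 144 := by norm_num
      rw [h2] at hdvd
      exact Nat.Coprime.dvd_of_dvd_mul_left
        (((Nat.Prime.coprime_iff_not_dvd (by norm_num : Nat.Prime 5)).2 h5).symm) hdvd
    have h3 : Nat.card G ∈ Nat.divisors 144 := Nat.mem_divisors.2 ⟨h1, by norm_num⟩
    have h4 : Nat.divisors 144 = {1, 2, 3, 4, 6, 8, 9, 12, 16, 18, 24, 36, 48, 72, 144} := by decide +kernel
    rw [h4] at h3
    have h5' : (Nat.card G).primeFactors ⊆ {2, 3} := by
      intro r hr
      have h6 := Nat.dvd_trans (Nat.dvd_of_mem_primeFactors hr) h1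
      have h7 := Nat.prime_of_mem_primeFactors hr
      have h8 : r ∣ 2 ^ 4 * 3 ^ 2 := by norm_num; exact h6
      rcases h7.dvd_mul.1 h8 with h9 | h9
      · simp [(Nat.prime_dvd_prime_iff_eq h7 Nat.prime_two).1 (h7.dvd_of_dvd_pow h9)]
      · simp [(Nat.prime_dvd_prime_iff_eq h7 Nat.prime_three).1 (h7.dvd_of_dvd_pow h9)]
    conv_lhs => rw [← Nat.factorization_prod_pow_eq_self hpos.ne']
    rw [Finsupp.prod_of_support_subset _ (by simpa using h5') _ (by simp)]
    rw [Finset.prod_pair (by norm_num)]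
  have hnt : Nontrivial G := by
    by_contra hno
    rw [not_nontrivial_iff_subsingleton] at hno
    have h1 := hprim.toIsPretransitive
    have : Subsingleton X := ⟨fun x y => by
      obtain ⟨g, rfl⟩ := MulAction.exists_smul_eq G x y
      rw [Subsingleton.elim g 1, one_smul]⟩
    have h2 : Nat.card X ≤ 1 := Finite.card_le_one_iff_subsingleton.2 this
    omega
  -- a minimal normal subgroup
  obtain ⟨M, hM, hMmin⟩ : ∃ M : Subgroup G, (M.Normal ∧ M ≠ ⊥) ∧
      ∀ K : Subgroup G, K.Normal → K ≠ ⊥ → K ≤ M → K = M := by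
    have hne' : {K : Subgroup G | K.Normal ∧ K ≠ ⊥}.Nonempty := ⟨⊤, inferInstance, bot_ne_top.symm⟩
    obtain ⟨M, hM⟩ := (Set.toFinite {K : Subgroup G | K.Normal ∧ K ≠ ⊥}).exists_minimal hne'
    exact ⟨M, hM.1, fun K hK hK0 hKM => le_antisymm hKM (hM.2 ⟨hK, hK0⟩ hKM)⟩
  have := hM.1
  obtain ⟨-, -, p, d, hp, hd, hpd, -⟩ := Cfsg.Agent.S0547.result hprim M hM.2 (fun K hK hKM => by
    by_cases h : K = ⊥
    · exact Or.inl h
    · exact Or.inr (hMmin K hK h hKM))
  rw [hX] at hpd
  have h2 : p = 2 := by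
    have : 2 ∣ p ^ d := by rw [← hpd]; norm_num
    exact ((Nat.prime_dvd_prime_iff_eq Nat.prime_two hp).1 (Nat.prime_two.dvd_of_dvd_pow this)).symm
  have h3 : p = 3 := by
    have : 3 ∣ p ^ d := by rw [← hpd]; norm_num
    exact ((Nat.prime_dvd_prime_iff_eq Nat.prime_three hp).1 (Nat.prime_three.dvd_of_dvd_pow this)).symm
  omega

end Cfsg.Agent.H626.PermB
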