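import Cfsg.Agent.H626.PermB.Imp
import Cfsg.Agent.H626.PermB.Six
import Cfsg.Agent.H475.KGL.Rows

/-!
# The weighted class sum of permutation groups of order prime to 5 (helper626, task T7 of project KGL)
-/

set_option autoImplicit false

namespace Cfsg.Agent.H626.PermB

open Subgroup Cfsg.Agent.H475.KGL

theorem kc_le_of_surj {A B : Type*} [Group A] [Group B] [Finite A] (f : A →* B) (hf : Function.Surjective f) :
    kc B ≤ kc A := by
  have : Finite (ConjClasses A) := Finite.of_surjective _ ConjClasses.mk_surjective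
  exact Nat.card_le_card_of_surjective _ (ConjClasses.map_surjective hf)

/-- the representation on `Fin n` -/
noncomputable def toFin {G : Type*} [Group G] {X : Type*} {n : ℕ} (e : X ≃ Fin n) (φ : G →* Equiv.Perm X) :
    G →* Equiv.Perm (Fin n) :=
  (e.permCongrHom : Equiv.Perm X →* Equiv.Perm (Fin n)).comp φ

theorem toFin_apply {G : Type*} [Group G] {X : Type*} {n : ℕ} (e : X ≃ Fin n) (φ : G →* Equiv.Perm X) (g : G)
    (x : X) : toFin e φ g (e x) = e (φ g x) := by
  change e (φ g (e.symm (e x))) = _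
  rw [e.symm_apply_apply]

theorem toFin_injective {G : Type*} [Group G] {X : Type*} {n : ℕ} (e : X ≃ Fin n) (φ : G →* Equiv.Perm X)
    (hφ : Function.Injective φ) : Function.Injective (toFin e φ) := by
  intro a b h
  apply hφ
  ext x
  have h1 := congrArg (fun σ : Equiv.Perm (Fin n) => σ (e x)) h
  simp only [toFin_apply] at h1
  exact e.injective h1

theorem kc_le_two_pow (P : Perm2) {G : Type} [Group G] [Finite G] {X : Type} [Finite X] (φ : G →* Equiv.Perm X)
    (hφ : Function.Injective φ) : kc G ≤ 2 ^ (Nat.card X - 1) := by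
  let e : X ≃ Fin (Nat.card X) := Finite.equivFin X
  have h1 := P (Nat.card X) (toFin e φ).range
  refine le_trans ?_ h1
  exact kc_le_of_surj ((MonoidHom.ofInjective (toFin_injective e φ hφ)).symm.toMonoidHom)
    (MulEquiv.surjective _)

theorem bd_one (P : Perm2) (n : ℕ) : Bd 1 2 n := by
  intro G _ _ X _ φ hn _ K _ y hK
  have h1 : nu K y (fun g => Fx 1 (φ g)) = nu K y (fun _ => 1) := nu_congr fun z _ => by simp [Fx]
  rw [h1]
  refine (nu_one_le K y).trans ?_
  have h2 := kc_le_two_pow P (φ.comp K.subtype) (by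
    rw [injective_iff_map_eq_one]
    intro k hk
    apply Subtype.ext
    have h3 : (k : G) ∈ K ⊓ φ.ker := ⟨k.2, hk⟩
    rw [hK] at h3
    exact h3)
  rw [hn] at h2
  exact_mod_cast h2

/-- the constants -/
noncomputable def om : ℝ := Real.sqrt 6 / 4

theorem om_sq : om ^ 2 = 3 / 8 := by
  unfold om
  rw [div_pow, Real.sq_sqrt (by norm_num)]
  norm_num

theorem om_nonneg : 0 ≤ om := by unfold om; positivity

theorem om_le : 2 * om ≤ 25 / 16 := by
  have h1 := om_sq
  have h2 := om_nonneg
  nlinarith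

theorem om_le_one : om ≤ 1 := by
  have := om_le
  linarith

theorem two_le_mv {X : Type*} [Finite X] {σ : Equiv.Perm X} (h : σ ≠ 1) : 2 ≤ mv σ := by
  obtain ⟨x, hx⟩ : ∃ x, σ x ≠ x := by
    by_contra hno
    push Not at hno
    exact h (Equiv.ext hno)
  have : Nontrivial {x // σ x ≠ x} := ⟨⟨x, hx⟩, ⟨σ x, fun h1 => hx (σ.injective h1)⟩, fun h1 =>
    hx (congrArg Subtype.val h1).symm⟩
  exact Finite.one_lt_card_iff_nontrivial.2 this

theorem Fx_le {X : Type*} [Finite X] {σ : Equiv.Perm X} (h : σ ≠ 1) : Fx om σ ≤ 3 / 8 := by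
  rw [← om_sq]
  exact pow_le_pow_of_le_one om_nonneg om_le_one (two_le_mv h)

theorem mv_conj {X : Type*} (σ τ : Equiv.Perm X) : mv (τ * σ * τ⁻¹) = mv σ := by
  unfold mv
  refine Nat.card_congr (τ⁻¹.subtypeEquiv fun x => ?_)
  change ¬ τ (σ (τ⁻¹ x)) = x ↔ ¬ σ (τ⁻¹ x) = τ⁻¹ x
  rw [Equiv.Perm.eq_inv_iff_eq]

/-- the bound from the class number -/
theorem nu_le_kc {G : Type*} [Group G] [Finite G] {X : Type*} [Finite X] (φ : G →* Equiv.Perm X)
    (hφ : Function.Injective φ) : nu (⊤ : Subgroup G) 1 (fun g => Fx om (φ g)) ≤ 1 + (kc G - 1) * (3 / 8) := by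
  classical
  have : Fintype (ConjClasses G) := Fintype.ofFinite _
  let r : ConjClasses G → G := fun c => (ConjClasses.mk_surjective c).choose
  have hr : ∀ c, ConjClasses.mk (r c) = c := fun c => (ConjClasses.mk_surjective c).choose_spec
  have hcls : ∀ x z : G, IsConj x z → Fx om (φ x) = Fx om (φ z) := by
    intro x z h
    obtain ⟨g, hg⟩ := isConj_iff.1 h
    unfold Fx
    rw [← hg, map_mul, map_mul, map_inv, mv_conj]
  rw [nu_top _ hcls r hr, ← Finset.add_sum_erase _ _ (Finset.mem_univ (ConjClasses.mk (1 : G)))]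
  have h1 : Fx om (φ (r (ConjClasses.mk 1))) = 1 := by
    have h2 : IsConj (r (ConjClasses.mk (1 : G))) 1 := by
      rw [← ConjClasses.mk_eq_mk_iff_isConj, hr]
    rw [hcls _ _ h2, map_one, Fx_one]
  rw [h1]
  refine add_le_add_right ?_ 1
  have h3 : ∑ c ∈ Finset.univ.erase (ConjClasses.mk (1 : G)), Fx om (φ (r c)) ≤
      ∑ _c ∈ Finset.univ.erase (ConjClasses.mk (1 : G)), (3 / 8 : ℝ) := by
    refine Finset.sum_le_sum fun c hc => Fx_le ?_
    intro h4
    rw [← map_one φ] at h4
    have h5 := hφ h4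
    apply (Finset.mem_erase.1 hc).1
    rw [← hr c, h5]
  refine h3.trans (le_of_eq ?_)
  have h6 : kc G = Fintype.card (ConjClasses G) := Nat.card_eq_fintype_card
  rw [Finset.sum_const, Finset.card_erase_of_mem (Finset.mem_univ _), Finset.card_univ, nsmul_eq_mul,
    h6, Nat.cast_sub (Fintype.card_pos_iff.2 ⟨ConjClasses.mk 1⟩), Nat.cast_one]

theorem pow_ineq (m : ℕ) : (2 : ℝ) ^ (m + 7) ≤ ((25 / 16 : ℝ) ^ (m + 6)) ^ 2 := by
  have h1 : (2 : ℝ) ^ m ≤ ((25 / 16 : ℝ) ^ m) ^ 2 := by
    rw [← pow_mul, mul_comm, pow_mul]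
    exact pow_le_pow_left₀ (by norm_num) (by norm_num) m
  calc (2 : ℝ) ^ (m + 7) = 2 ^ m * 2 ^ 7 := pow_add _ _ _
    _ ≤ ((25 / 16 : ℝ) ^ m) ^ 2 * ((25 / 16 : ℝ) ^ 6) ^ 2 := by
        refine mul_le_mul h1 (by norm_num) (by positivity) (by positivity)
    _ = _ := by rw [← mul_pow, ← pow_add]

/-- the primitive case -/
theorem prim_case (P : Perm2) (P5 : Prim5) {G : Type} [Group G] [Finite G] (h5 : ¬ 5 ∣ Nat.card G) {X : Type}
    [Finite X] [Nonempty X] [MulAction G X] [FaithfulSMul G X] (hprim : MulAction.IsPreprimitive G X) :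
    nu (⊤ : Subgroup G) 1 (fun g => Fx om (MulAction.toPermHom G X g)) ≤ (25 / 16) ^ (Nat.card X - 1) := by
  have hφ : Function.Injective (MulAction.toPermHom G X) := MulAction.toPerm_injective
  have h1 := nu_le_kc (MulAction.toPermHom G X) hφ
  have h2 : (kc G : ℝ) ≤ 2 ^ (Nat.card X - 1) := by exact_mod_cast kc_le_two_pow P _ hφ
  have hk1 : (1 : ℝ) ≤ kc G := by
    have : Finite (ConjClasses G) := Finite.of_surjective _ ConjClasses.mk_surjective
    have : 0 < kc G := Nat.card_pos_iff.2 ⟨⟨ConjClasses.mk 1⟩, inferInstance⟩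
    exact_mod_cast this
  have hn0 : 0 < Nat.card X := Nat.card_pos
  rcases Nat.lt_or_ge (Nat.card X) 7 with hlt | hge
  · obtain ⟨n, hn⟩ : ∃ n, Nat.card X = n := ⟨_, rfl⟩
    rw [hn] at h2 hlt hn0 ⊢
    refine h1.trans ?_
    interval_cases n
    · rw [show (2 : ℝ) ^ (1 - 1) = 1 by norm_num] at h2
      rw [show (25 / 16 : ℝ) ^ (1 - 1) = 1 by norm_num]
      linarith
    · rw [show (2 : ℝ) ^ (2 - 1) = 2 by norm_num] at h2
      rw [show (25 / 16 : ℝ) ^ (2 - 1) = 25 / 16 by norm_num]
      linarith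
    · rw [show (2 : ℝ) ^ (3 - 1) = 4 by norm_num] at h2
      rw [show (25 / 16 : ℝ) ^ (3 - 1) = 625 / 256 by norm_num]
      linarith
    · rw [show (2 : ℝ) ^ (4 - 1) = 8 by norm_num] at h2
      rw [show (25 / 16 : ℝ) ^ (4 - 1) = 15625 / 4096 by norm_num]
      linarith
    · exfalso
      apply h5
      have h3 := hprim.toIsPretransitive
      obtain ⟨x⟩ := (inferInstance : Nonempty X)
      have h4 := MulAction.index_stabilizer_of_transitive G x
      rw [← hn, ← h4]
      exact (MulAction.stabilizer G x).index_dvd_card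
    · exact absurd (five_dvd_of_six hprim hn) h5
  · let e : X ≃ Fin (Nat.card X) := Finite.equivFin X
    let θ := toFin e (MulAction.toPermHom G X)
    let f : X →ₑ[θ.rangeRestrict] Fin (Nat.card X) :=
      { toFun := e
        map_smul' := fun g x => (toFin_apply e (MulAction.toPermHom G X) g x).symm }
    have h3 : MulAction.IsPreprimitive θ.range (Fin (Nat.card X)) :=
      (MulAction.isPreprimitive_congr (f := f) θ.rangeRestrict_surjective e.bijective).1 hprim
    have h4 := P5 (Nat.card X) hge θ.range h3 (fun hd => h5 (hd.trans (Subgroup.card_range_dvd _)))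
    have h5' : kc G ≤ kc θ.range :=
      kc_le_of_surj ((MonoidHom.ofInjective (toFin_injective e _ hφ)).symm.toMonoidHom) (MulEquiv.surjective _)
    have h6 : (kc G : ℝ) ^ 2 ≤ 2 ^ Nat.card X := by
      exact_mod_cast (Nat.pow_le_pow_left h5' 2).trans h4
    refine h1.trans ?_
    obtain ⟨m, hm⟩ : ∃ m, Nat.card X = m + 7 := ⟨Nat.card X - 7, by omega⟩
    rw [hm] at h6 ⊢
    have h7 := h6.trans (pow_ineq m)
    have h8 : (kc G : ℝ) ≤ (25 / 16) ^ (m + 6) :=
      (pow_le_pow_iff_left₀ (by positivity) (by positivity) two_ne_zero).1 h7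
    have h9 : m + 7 - 1 = m + 6 := by omega
    rw [h9]
    linarith

/-- the main statement for `n` points -/
def Mn (n : ℕ) : Prop := ∀ (G : Type) [Group G] [Finite G] (X : Type) [Finite X] (φ : G →* Equiv.Perm X),
  Function.Injective φ → Nat.card X = n → ¬ 5 ∣ Nat.card G →
    nu (⊤ : Subgroup G) 1 (fun g => Fx om (φ g)) ≤ (25 / 16) ^ (n - 1)

theorem bd_of_mn {n : ℕ} (h : Mn n) : Bd om (25 / 16) n := by
  intro G _ _ X _ φ hn h5 K _ y hK
  have h1 := nu_le_of_hom φ.rangeRestrict K y (fun g => Fx om (φ g)) (fun z => Fx_nonneg om_nonneg _)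
    (fun σ => Fx om (σ : Equiv.Perm X)) (fun z _ => by
      rw [MonoidHom.ker_rangeRestrict, hK, nu_bot]
      exact le_refl (Fx om (φ z)))
  refine h1.trans ?_
  have h2 : (K.map φ.rangeRestrict).Normal := Subgroup.Normal.map inferInstance _ φ.rangeRestrict_surjective
  refine (nu_le_sup (K.map φ.rangeRestrict) (φ.rangeRestrict y) (fun σ => Fx om (σ : Equiv.Perm X))
    (fun z => Fx_nonneg om_nonneg _)).trans ?_
  set Q := K.map φ.rangeRestrict ⊔ zpowers (φ.rangeRestrict y) with hQ
  rw [nu_subtype]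
  have h3 := h Q X (φ.range.subtype.comp Q.subtype)
    (fun a b hab => Subtype.ext (Subtype.ext hab)) hn (fun hd => h5 ?_)
  · exact h3
  · exact (hd.trans (Subgroup.card_subgroup_dvd_card Q)).trans (Subgroup.card_range_dvd _)

open scoped Pointwise in
theorem exists_block {G X : Type} [Group G] [MulAction G X] [MulAction.IsPretransitive G X] {B : Set X}
    (hB : MulAction.IsBlock G B) (hne : B.Nonempty) : ∃ π : X → G ⧸ MulAction.stabilizer G B,
    Function.Surjective π ∧ (∀ (g : G) x, π (g • x) = g • π x) ∧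
      ∀ (g : G) x, π x = (g : G ⧸ MulAction.stabilizer G B) ↔ x ∈ g • B := by
  obtain ⟨x0, hx0⟩ := hne
  choose r hr using fun x : X => MulAction.exists_smul_eq G x0 x
  have key : ∀ (g : G) x, ((r x : G) : G ⧸ MulAction.stabilizer G B) = (g : G ⧸ MulAction.stabilizer G B) ↔
      x ∈ g • B := by
    intro g x
    rw [eq_comm, QuotientGroup.eq, MulAction.mem_stabilizer_iff, mul_smul, inv_smul_eq_iff]
    constructor
    · intro h
      rw [← h]
      exact ⟨x0, hx0, hr x⟩
    · intro h
      refine MulAction.isBlock_iff_smul_eq_smul_of_nonempty.1 hB ⟨x, ⟨x0, hx0, hr x⟩, h⟩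
  refine ⟨fun x => (r x : G ⧸ MulAction.stabilizer G B), ?_, ?_, key⟩
  · intro y
    obtain ⟨g, rfl⟩ := QuotientGroup.mk_surjective y
    exact ⟨g • x0, (key g _).2 ⟨x0, hx0, rfl⟩⟩
  · intro g x
    change _ = ((g * r x : G) : G ⧸ MulAction.stabilizer G B)
    rw [key, mul_smul]
    refine ⟨x, ?_, rfl⟩
    exact (key _ _).1 rfl

open scoped Pointwise in
theorem mn_all (P : Perm2) (P5 : Prim5) (n : ℕ) : Mn n := by
  classical
  induction n using Nat.strong_induction_on with
  | _ n ih =>
  intro G _ _ X _ φ hφ hn h5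
  have hom := om_nonneg
  rcases isEmpty_or_nonempty X with hX | hX
  · -- `X` is empty
    have h1 : (⊤ : Subgroup G) = ⊥ := by
      rw [eq_bot_iff]
      intro g _
      exact hφ (Equiv.ext fun x => (IsEmpty.false x).elim)
    rw [h1, nu_bot, map_one, Fx_one]
    exact one_le_pow₀ (by norm_num)
  subst hn
  let _ : MulAction G X := MulAction.compHom X φ
  have hfaith : FaithfulSMul G X := ⟨fun {a b} h => hφ (Equiv.ext h)⟩
  have hbd : ∀ k, k < Nat.card X → Bd om (25 / 16) k := fun k hk => bd_of_mn (ih k hk)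
  by_cases htr : MulAction.IsPretransitive G X
  · by_cases hpr : MulAction.IsPreprimitive G X
    · exact prim_case P P5 h5 hpr
    · -- blocks
      obtain ⟨B, hB, hB1⟩ : ∃ B : Set X, MulAction.IsBlock G B ∧ ¬ MulAction.IsTrivialBlock B := by
        by_contra hno
        push Not at hno
        exact hpr ⟨fun {B} hB => hno B hB⟩
      rw [MulAction.IsTrivialBlock, not_or, Set.not_subsingleton_iff] at hB1
      obtain ⟨⟨x, hx, x', hx', hxx⟩, hB2⟩ := hB1
      obtain ⟨π, hπ, hπ1, hπ2⟩ := exists_block hB ⟨x, hx⟩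
      have hfib : ∀ y, Nat.card {x // π x = y} < Nat.card X := by
        intro y
        by_contra hge
        have h1 : ∀ x, π x = y := by
          by_contra hno
          push Not at hno
          obtain ⟨w, hw⟩ := hno
          exact hge (Finite.card_subtype_lt hw)
        obtain ⟨g, rfl⟩ := QuotientGroup.mk_surjective y
        have h2 : g • B = Set.univ := Set.eq_univ_of_forall fun w => (hπ2 g w).1 (h1 w)
        apply hB2
        rw [← Set.smul_set_univ (a := g)] at h2
        exact MulAction.injective g h2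
      have hY : Nat.card (G ⧸ MulAction.stabilizer G B) < Nat.card X := by
        by_contra hge
        have h1 := (hπ.bijective_of_nat_card_le (not_lt.1 hge)).1
        apply hxx
        apply h1
        have h2 : ∀ w ∈ B, π w = ((1 : G) : G ⧸ MulAction.stabilizer G B) := by
          intro w hw
          rw [hπ2, one_smul]
          exact hw
        rw [h2 x hx, h2 x' hx']
      refine imp hom (by norm_num) om_le h5 φ hφ (MulAction.toPermHom G (G ⧸ MulAction.stabilizer G B)) π hπ hπ1
        (fun y => hbd _ (hfib y)) (fun y => bd_one P _) ?_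
      refine hbd _ hY _ _ (MonoidHom.range _).subtype rfl (fun hd => h5 (hd.trans (Subgroup.card_range_dvd _))) ⊤ 1 ?_
      rw [(MonoidHom.ker_eq_bot_iff _).2 (Subgroup.subtype_injective _), inf_bot_eq]
  · -- intransitive
    obtain ⟨x0, x1, h01⟩ : ∃ x0 x1 : X, ∀ g : G, g • x0 ≠ x1 := by
      by_contra hno
      push Not at hno
      exact htr ⟨hno⟩
    let π : X → Bool := fun x => decide (∃ g : G, g • x0 = x)
    have hπ0 : π x0 = true := by
      simp only [π, decide_eq_true_eq]
      exact ⟨1, one_smul _ _⟩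
    have hπ1 : π x1 = false := by
      simp only [π, decide_eq_false_iff_not, not_exists]
      exact h01
    have heq : ∀ (g : G) x, π (φ g x) = π x := by
      intro g x
      simp only [π, decide_eq_decide]
      constructor
      · rintro ⟨h, hh⟩
        refine ⟨g⁻¹ * h, ?_⟩
        rw [mul_smul, hh]
        exact inv_smul_smul g x
      · rintro ⟨h, hh⟩
        refine ⟨g * h, ?_⟩
        rw [mul_smul, hh]
        rfl
    have hfib : ∀ y, Nat.card {x // π x = y} < Nat.card X := by
      intro y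
      cases y with
      | true => exact Finite.card_subtype_lt (x := x1) (by rw [hπ1]; exact Bool.false_ne_true)
      | false => exact Finite.card_subtype_lt (x := x0) (by rw [hπ0]; exact Bool.true_eq_false_eq_False)
    refine imp hom (by norm_num) om_le h5 φ hφ (1 : G →* Equiv.Perm Bool) π (fun y => ?_) (fun g x => ?_)
      (fun y => hbd _ (hfib y)) (fun y => bd_one P _) ?_
    · cases y with
      | true => exact ⟨x0, hπ0⟩
      | false => exact ⟨x1, hπ1⟩
    · exact heq g x
    · have h1 : (⊤ : Subgroup (1 : G →* Equiv.Perm Bool).range) = ⊥ := by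
        rw [eq_bot_iff]
        rintro ⟨_, g, rfl⟩ _
        rfl
      rw [h1, nu_bot]
      rw [OneMemClass.coe_one, Fx_one]
      exact one_le_pow₀ (by norm_num)

end Cfsg.Agent.H626.PermB
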